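import Mathlib
import Cfsg.Agent.Lib.Helper81.FCZ.Defs
import Cfsg.Agent.S2119

/-!
# FCZ package PSI: the action of `G` on `S / Z(S) = Alt(5)`
-/

set_option autoImplicit false

namespace Cfsg.Agent.Lib.Helper25.FCZ

open Cfsg.Agent.Lib.Helper81.FCZ

universe u v

section Induced

variable {S : Type u} {A : Type v} [Group S] [Group A] (ρ : S →* A)
  (hρ : Function.Surjective ρ)
  (hchar : ∀ (φ : MulAut S) (x : S), ρ x = 1 → ρ (φ x) = 1)

/-- The endomorphism of the quotient induced by an automorphism. -/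
noncomputable def indEnd (φ : MulAut S) : A →* A :=
  ρ.liftOfRightInverse (Function.surjInv hρ) (Function.rightInverse_surjInv hρ)
    ⟨ρ.comp φ.toMonoidHom, fun x hx => by
      rw [MonoidHom.mem_ker] at hx ⊢
      exact hchar φ x hx⟩

theorem indEnd_apply (φ : MulAut S) (s : S) : indEnd ρ hρ hchar φ (ρ s) = ρ (φ s) :=
  ρ.liftOfRightInverse_comp_apply _ _ _ s

/-- The automorphism of the quotient induced by an automorphism. -/
noncomputable def indAut (φ : MulAut S) : MulAut A :=
  { toFun := indEnd ρ hρ hchar φ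
    invFun := indEnd ρ hρ hchar φ⁻¹
    left_inv := by
      intro a
      obtain ⟨s, rfl⟩ := hρ a
      rw [indEnd_apply, indEnd_apply]
      simp
    right_inv := by
      intro a
      obtain ⟨s, rfl⟩ := hρ a
      rw [indEnd_apply, indEnd_apply]
      simp
    map_mul' := map_mul _ }

theorem indAut_apply (φ : MulAut S) (s : S) : indAut ρ hρ hchar φ (ρ s) = ρ (φ s) :=
  indEnd_apply ρ hρ hchar φ s

/-- Passing to the quotient, as a homomorphism of automorphism groups. -/
noncomputable def indAutHom : MulAut S →* MulAut A where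
  toFun := indAut ρ hρ hchar
  map_one' := by
    ext a
    obtain ⟨s, rfl⟩ := hρ a
    rw [indAut_apply]
    rfl
  map_mul' := by
    intro φ ψ
    ext a
    obtain ⟨s, rfl⟩ := hρ a
    rw [indAut_apply, MulAut.mul_apply, MulAut.mul_apply, indAut_apply, indAut_apply]

theorem indAutHom_apply (φ : MulAut S) (s : S) :
    indAutHom ρ hρ hchar φ (ρ s) = ρ (φ s) :=
  indEnd_apply ρ hρ hchar φ s

end Induced

/-- An automorphism of a perfect group that is the identity modulo the centre is the
identity. -/
theorem eq_self_of_mul_inv_mem_center {S : Type u} [Group S] (hSp : commutator S = ⊤)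
    (φ : MulAut S) (h2 : ∀ s : S, φ s * s⁻¹ ∈ Subgroup.center S) (s : S) : φ s = s := by
  let f : S →* S :=
    { toFun := fun s => φ s * s⁻¹
      map_one' := by simp
      map_mul' := by
        intro s t
        show φ (s * t) * (s * t)⁻¹ = φ s * s⁻¹ * (φ t * t⁻¹)
        have hc := (Subgroup.mem_center_iff.mp (h2 t)) s⁻¹
        rw [map_mul, mul_inv_rev, mul_assoc (φ s) s⁻¹, hc]
        group }
  have hf : ∀ t : S, f t ∈ Subgroup.center S := h2
  have h3 : commutator S ≤ f.ker := by
    rw [commutator_eq_closure, Subgroup.closure_le]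
    rintro x ⟨p, q, rfl⟩
    rw [SetLike.mem_coe, MonoidHom.mem_ker, commutatorElement_def, map_mul, map_mul, map_mul,
      map_inv, map_inv]
    have hc := (Subgroup.mem_center_iff.mp (hf q)) (f p)
    rw [hc]
    group
  rw [hSp] at h3
  have h4 : f s = 1 := MonoidHom.mem_ker.mp (h3 (Subgroup.mem_top _))
  exact mul_inv_eq_one.mp h4

theorem pkgPsi : Cfsg.Agent.Lib.Helper81.FCZ.PkgPsi.{u} := by
  rintro ⟨π, hπs, hπk⟩ G _ _ S hSn hSp ⟨e⟩
  classical
  obtain ⟨ρ, hρdef⟩ : ∃ ρ : S →* alternatingGroup (Fin 5), ∀ x, ρ x = π (e x) :=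
    ⟨π.comp e.toMonoidHom, fun _ => rfl⟩
  have hρs : Function.Surjective ρ := by
    intro a
    obtain ⟨y, hy⟩ := hπs a
    exact ⟨e.symm y, by rw [hρdef, e.apply_symm_apply, hy]⟩
  have hker : ∀ x : S, ρ x = 1 ↔ x ∈ Subgroup.center S := by
    intro x
    have h1 : ρ x = 1 ↔ e x ∈ Subgroup.center Gam := by
      rw [← hπk, MonoidHom.mem_ker, hρdef]
    rw [h1, Subgroup.mem_center_iff, Subgroup.mem_center_iff]
    constructor
    · intro h t
      apply e.injective
      rw [map_mul, map_mul]
      exact h (e t)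
    · intro h y
      have := congrArg e (h (e.symm y))
      rw [map_mul, map_mul, e.apply_symm_apply] at this
      exact this
  have hchar : ∀ (φ : MulAut S) (x : S), ρ x = 1 → ρ (φ x) = 1 := by
    intro φ x hx
    rw [hker] at hx ⊢
    rw [Subgroup.mem_center_iff] at hx ⊢
    intro t
    have := congrArg φ (hx (φ⁻¹ t))
    rw [map_mul, map_mul] at this
    simpa using this
  obtain ⟨α, hα⟩ : ∃ α : G →* MulAut (alternatingGroup (Fin 5)),
      ∀ (g : G) (s : S), α g (ρ s) = ρ (MulAut.conjNormal g s) :=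
    ⟨(indAutHom ρ hρs hchar).comp (MulAut.conjNormal (H := S)), fun g s =>
      indAutHom_apply ρ hρs hchar _ s⟩
  have hbij := Cfsg.Agent.S2119.result 5 (by norm_num) (by norm_num)
  obtain ⟨ψ, hψ⟩ : ∃ ψ : G →* Equiv.Perm (Fin 5),
      ∀ g : G, (MulAut.conjNormal (ψ g) : MulAut (alternatingGroup (Fin 5))) = α g :=
    ⟨(MulEquiv.ofBijective MulAut.conjNormal hbij).symm.toMonoidHom.comp α, fun g =>
      (MulEquiv.ofBijective MulAut.conjNormal hbij).apply_symm_apply (α g)⟩
  have hψ1 : ∀ g : G, ψ g = 1 ↔ α g = 1 := by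
    intro g
    constructor
    · intro h
      rw [← hψ, h, map_one]
    · intro h
      apply hbij.1
      rw [hψ, h, map_one]
  have hα1 : ∀ g : G, α g = 1 ↔ ∀ s : S, ρ (MulAut.conjNormal g s) = ρ s := by
    intro g
    constructor
    · intro h s
      rw [← hα, h]
      rfl
    · intro h
      ext a
      obtain ⟨s, rfl⟩ := hρs a
      rw [hα, h]
      rfl
  refine ⟨ψ, ?_, ?_⟩
  · ext g
    rw [MonoidHom.mem_ker, hψ1, hα1, Subgroup.mem_centralizer_iff]
    constructor
    · intro h1
      -- conjugation by `g` is the identity modulo the centre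
      have h2 : ∀ s : S, MulAut.conjNormal g s * s⁻¹ ∈ Subgroup.center S := by
        intro s
        rw [← hker, map_mul, h1, map_inv, mul_inv_cancel]
      intro s hs
      have h6 : MulAut.conjNormal g (⟨s, hs⟩ : S) = ⟨s, hs⟩ :=
        eq_self_of_mul_inv_mem_center hSp (MulAut.conjNormal g) h2 ⟨s, hs⟩
      have h7 : g * s * g⁻¹ = s := by
        have := congrArg Subtype.val h6
        rwa [MulAut.conjNormal_apply] at this
      calc s * g = g * s * g⁻¹ * g := by rw [h7]
        _ = g * s := by group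
    · intro h s
      have h1 : MulAut.conjNormal g s = s := by
        apply Subtype.ext
        rw [MulAut.conjNormal_apply, ← h s s.2]
        group
      rw [h1]
  · -- the image of `S`
    have hS : ∀ s : S, ψ (s : G) = (ρ s : Equiv.Perm (Fin 5)) := by
      intro s
      apply hbij.1
      rw [hψ]
      ext a
      obtain ⟨t, rfl⟩ := hρs a
      rw [hα, MulAut.conjNormal_apply]
      have h2 : MulAut.conjNormal (s : G) t = s * t * s⁻¹ := by
        apply Subtype.ext
        rw [MulAut.conjNormal_apply]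
        rfl
      rw [h2, map_mul, map_mul, map_inv]
      rfl
    ext x
    rw [Subgroup.mem_map]
    constructor
    · rintro ⟨s, hs, rfl⟩
      rw [hS ⟨s, hs⟩]
      exact (ρ ⟨s, hs⟩).2
    · intro hx
      obtain ⟨s, hs⟩ := hρs ⟨x, hx⟩
      refine ⟨s, s.2, ?_⟩
      rw [hS s, hs]

end Cfsg.Agent.Lib.Helper25.FCZ
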