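import Mathlib
import Cfsg.Agent.Lib.Helper81.FCZ.Defs

/-!
# FCZ package RES: the perfect residual of a non-solvable finite group
-/

set_option autoImplicit false

namespace Cfsg.Agent.Lib.Helper25.FCZ

universe u

/-- If the derived series is stationary at `n`, the term is a perfect group. -/
theorem commutator_derivedSeries_eq_top {G : Type u} [Group G] (n : ℕ)
    (h : derivedSeries G (n + 1) = derivedSeries G n) :
    commutator ↥(derivedSeries G n) = ⊤ := by
  have h1 : (commutator ↥(derivedSeries G n)).map (derivedSeries G n).subtype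
      = ⁅derivedSeries G n, derivedSeries G n⁆ :=
    Subgroup.map_subtype_commutator (derivedSeries G n)
  have h2 : (⊤ : Subgroup ↥(derivedSeries G n)).map (derivedSeries G n).subtype
      = derivedSeries G n := by
    rw [← MonoidHom.range_eq_map, Subgroup.range_subtype]
  apply Subgroup.map_injective (derivedSeries G n).subtype_injective
  rw [h1, h2]
  exact h

/-- The derived series of a finite group is eventually stationary. -/
theorem exists_derivedSeries_stationary (G : Type u) [Group G] [Finite G] :
    ∃ n : ℕ, derivedSeries G (n + 1) = derivedSeries G n := by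
  classical
  have hne : (Set.range fun n : ℕ => Nat.card ↥(derivedSeries G n)).Nonempty :=
    ⟨_, ⟨0, rfl⟩⟩
  obtain ⟨n, hn⟩ := Nat.sInf_mem hne
  refine ⟨n, ?_⟩
  have hle : derivedSeries G (n + 1) ≤ derivedSeries G n :=
    derivedSeries_antitone G (Nat.le_succ n)
  apply Subgroup.eq_of_le_of_card_ge hle
  have : sInf (Set.range fun n : ℕ => Nat.card ↥(derivedSeries G n))
      ≤ Nat.card ↥(derivedSeries G (n + 1)) := Nat.sInf_le ⟨n + 1, rfl⟩
  rw [← hn] at this
  exact this

theorem pkgRes : Cfsg.Agent.Lib.Helper81.FCZ.PkgRes.{u} := by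
  intro G _ _ hns
  obtain ⟨n, hn⟩ := exists_derivedSeries_stationary G
  refine ⟨derivedSeries G n, derivedSeries_normal G n, ?_, commutator_derivedSeries_eq_top n hn⟩
  intro hbot
  exact hns ((Group.isSolvable_def G).mpr ⟨n, hbot⟩)

end Cfsg.Agent.Lib.Helper25.FCZ
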